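import Mathlib

/-!
# Ladder HKK / ALP: restriction and quotient of an automorphism
-/

set_option autoImplicit false

namespace Cfsg.Agent.Lib.Lead.HKK

variable {G : Type*} [Group G]

/-- restriction of an automorphism to an invariant subgroup -/
noncomputable def resAut (α : MulAut G) (H : Subgroup G) (hH : H.map α.toMonoidHom = H) : MulAut H :=
  (α.subgroupMap H).trans (MulEquiv.subgroupCongr hH)

@[simp] theorem resAut_coe (α : MulAut G) (H : Subgroup G) (hH : H.map α.toMonoidHom = H) (x : H) :
    ((resAut α H hH x : H) : G) = α x := rfl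

/-- the automorphism induced on the quotient by an invariant normal subgroup -/
noncomputable def quotAut (α : MulAut G) (Y : Subgroup G) [Y.Normal] (hY : Y.map α.toMonoidHom = Y) :
    MulAut (G ⧸ Y) := QuotientGroup.congr Y Y α hY

@[simp] theorem quotAut_mk (α : MulAut G) (Y : Subgroup G) [Y.Normal] (hY : Y.map α.toMonoidHom = Y) (g : G) :
    quotAut α Y hY (g : G ⧸ Y) = ((α g : G) : G ⧸ Y) := rfl

theorem map_aut_eq (α : MulAut G) (H : Subgroup G) [hH : H.Characteristic] : H.map α.toMonoidHom = H :=
  Subgroup.characteristic_iff_map_eq.mp hH α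

theorem resAut_pow (α : MulAut G) (H : Subgroup G) (hH : H.map α.toMonoidHom = H) (k : ℕ) (x : H) :
    (((resAut α H hH) ^ k) x : G) = (α ^ k) x := by
  induction k with
  | zero => rfl
  | succ k ih =>
    rw [pow_succ', pow_succ', MulAut.mul_apply, MulAut.mul_apply, resAut_coe, ih]

theorem resAut_pow_eq_one (α : MulAut G) (H : Subgroup G) (hH : H.map α.toMonoidHom = H) (k : ℕ)
    (hk : α ^ k = 1) : (resAut α H hH) ^ k = 1 := by
  ext x
  rw [resAut_pow, hk]; rfl

theorem quotAut_pow (α : MulAut G) (Y : Subgroup G) [Y.Normal] (hY : Y.map α.toMonoidHom = Y) (k : ℕ) (g : G) :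
    ((quotAut α Y hY) ^ k) (g : G ⧸ Y) = (((α ^ k) g : G) : G ⧸ Y) := by
  induction k with
  | zero => rfl
  | succ k ih =>
    rw [pow_succ', pow_succ', MulAut.mul_apply, MulAut.mul_apply, ih, quotAut_mk]

theorem quotAut_pow_eq_one (α : MulAut G) (Y : Subgroup G) [Y.Normal] (hY : Y.map α.toMonoidHom = Y) (k : ℕ)
    (hk : α ^ k = 1) : (quotAut α Y hY) ^ k = 1 := by
  ext x
  induction x using QuotientGroup.induction_on with
  | H g => rw [quotAut_pow, hk]; rfl

/-- restriction does not increase the number of fixed points -/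
theorem card_fix_resAut_le [Finite G] (α : MulAut G) (H : Subgroup G) (hH : H.map α.toMonoidHom = H) :
    Nat.card {x : H // resAut α H hH x = x} ≤ Nat.card {g : G // α g = g} := by
  refine Nat.card_le_card_of_injective
    (fun x => ⟨(x.1 : G), by have := congrArg Subtype.val x.2; simpa using this⟩) ?_
  intro a b hab
  have h : ((a.1 : H) : G) = ((b.1 : H) : G) := congrArg (fun z : {g : G // α g = g} => (z.1 : G)) hab
  exact Subtype.ext (Subtype.ext h)

end Cfsg.Agent.Lib.Lead.HKK
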