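import Mathlib

/-!
# Ladder HKK (Higman - Kreknin - Kostrikin): definitions

`L` is a Lie ring, `K : ZMod n → AddSubgroup L` a family of additive subgroups
(NOT assumed independent, NOT assumed to span `L`).
-/

set_option autoImplicit false

namespace Cfsg.Agent.Lib.Lead.HKK

variable {L : Type*} [LieRing L] {n : ℕ}

/-- A `ZMod n`-graded family with zero `0`-component. -/
structure IsGr (K : ZMod n → AddSubgroup L) : Prop where
  zero : K 0 = ⊥
  lie : ∀ (a b : ZMod n) (x y : L), x ∈ K a → y ∈ K b → ⁅x, y⁆ ∈ K (a + b)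

/-- The graded family spanned by the brackets of homogeneous elements of `A` and `B`. -/
def brk (A B : ZMod n → AddSubgroup L) : ZMod n → AddSubgroup L := fun i =>
  AddSubgroup.closure {z | ∃ (a b : ZMod n) (x y : L), a + b = i ∧ x ∈ A a ∧ y ∈ B b ∧ z = ⁅x, y⁆}

/-- Derived family. -/
def der (K : ZMod n → AddSubgroup L) : ZMod n → AddSubgroup L := brk K K

/-- Lower central families: `gam K 0 = K`, `gam K (k+1) = ⁅gam K k, K⁆`. -/
def gam (K : ZMod n → AddSubgroup L) : ℕ → ZMod n → AddSubgroup L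
  | 0 => K
  | k + 1 => brk (gam K k) K

/-- Left normed bracket `⁅...⁅⁅u, l₁⁆, l₂⁆, ...⁆`. -/
def lnb (u : L) (l : List L) : L := l.foldl (fun a b => ⁅a, b⁆) u

/-- `ξ(p, s) = 1 + (p-1) + ... + (p-1)^(s-1)`. -/
def xi (p s : ℕ) : ℕ := Finset.sum (Finset.range s) (fun i => (p - 1) ^ i)

/-- the lower central series of the whole group, `Γ G d = γ_{d+1}(G)`. -/
abbrev Γ (G : Type*) [Group G] (d : ℕ) : Subgroup G := (⊤ : Subgroup G).lowerCentralSeries d

/-- "every `ZMod p`-graded family with zero `0`-component (in universe `u`) has `gam K c = 0`". -/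
def NilBound.{u} (p c : ℕ) : Prop :=
  ∀ (M : Type u) [LieRing M] (K : ZMod p → AddSubgroup M), IsGr K → ∀ i, gam K c i = ⊥

end Cfsg.Agent.Lib.Lead.HKK
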