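import Mathlib

/-!
# Ladder HKK: a Lie ring structure on a direct sum from bilinear maps `A i × A j → A (i+j+1)`
-/

set_option autoImplicit false

namespace Cfsg.Agent.Lib.Lead.HKK

open DirectSum

variable {A : ℕ → Type*} [∀ d, AddCommGroup (A d)]

/-- the biadditive extension of the maps `b i j` to the direct sum -/
noncomputable def grBr (b : ∀ i j, A i →+ A j →+ A (i + j + 1)) :
    (⨁ d, A d) →+ (⨁ d, A d) →+ (⨁ d, A d) :=
  DirectSum.toAddMonoid fun i => AddMonoidHom.flip <| DirectSum.toAddMonoid fun j =>
    AddMonoidHom.flip <| (DirectSum.of A (i + j + 1)).compHom.comp (b i j)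

theorem grBr_of_of (b : ∀ i j, A i →+ A j →+ A (i + j + 1)) (i j : ℕ) (x : A i) (y : A j) :
    grBr b (of A i x) (of A j y) = of A (i + j + 1) (b i j x y) := by
  simp [grBr]

theorem grBr_skew (b : ∀ i j, A i →+ A j →+ A (i + j + 1))
    (hskew : ∀ i j (x : A i) (y : A j), of A (i + j + 1) (b i j x y) = - of A (j + i + 1) (b j i y x))
    (x y : ⨁ d, A d) : grBr b x y = - grBr b y x := by
  induction x using DirectSum.induction_on with
  | zero => simp
  | of i x =>
    induction y using DirectSum.induction_on with
    | zero => simp
    | of j y => rw [grBr_of_of, grBr_of_of, hskew]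
    | add y y' hy hy' => rw [map_add, hy, hy', map_add, AddMonoidHom.add_apply, neg_add]
  | add x x' hx hx' => rw [map_add, AddMonoidHom.add_apply, hx, hx', map_add, neg_add]

theorem grBr_self (b : ∀ i j, A i →+ A j →+ A (i + j + 1))
    (halt : ∀ i (x : A i), b i i x x = 0)
    (hskew : ∀ i j (x : A i) (y : A j), of A (i + j + 1) (b i j x y) = - of A (j + i + 1) (b j i y x))
    (x : ⨁ d, A d) : grBr b x x = 0 := by
  induction x using DirectSum.induction_on with
  | zero => simp
  | of i x => rw [grBr_of_of, halt, map_zero]
  | add x y hx hy =>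
    simp only [map_add, AddMonoidHom.add_apply, hx, hy]
    rw [grBr_skew b hskew y x]
    abel

theorem grBr_jac (b : ∀ i j, A i →+ A j →+ A (i + j + 1))
    (hjac : ∀ i j k (x : A i) (y : A j) (z : A k),
      of A (i + (j + k + 1) + 1) (b i (j + k + 1) x (b j k y z))
        = of A (i + j + 1 + k + 1) (b (i + j + 1) k (b i j x y) z)
          + of A (j + (i + k + 1) + 1) (b j (i + k + 1) y (b i k x z)))
    (x y z : ⨁ d, A d) :
    grBr b x (grBr b y z) = grBr b (grBr b x y) z + grBr b y (grBr b x z) := by
  induction x using DirectSum.induction_on with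
  | zero => simp
  | add x x' hx hx' =>
    simp only [map_add, AddMonoidHom.add_apply, hx, hx']
    abel
  | of i x =>
    induction y using DirectSum.induction_on with
    | zero => simp
    | add y y' hy hy' =>
      simp only [map_add, AddMonoidHom.add_apply, hy, hy']
      abel
    | of j y =>
      induction z using DirectSum.induction_on with
      | zero => simp
      | add z z' hz hz' =>
        simp only [map_add, hz, hz']
        abel
      | of k z =>
        simp only [grBr_of_of]
        exact hjac i j k x y z

/-- The Lie ring structure. -/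
@[reducible] noncomputable def grLieRing (b : ∀ i j, A i →+ A j →+ A (i + j + 1))
    (halt : ∀ i (x : A i), b i i x x = 0)
    (hskew : ∀ i j (x : A i) (y : A j), of A (i + j + 1) (b i j x y) = - of A (j + i + 1) (b j i y x))
    (hjac : ∀ i j k (x : A i) (y : A j) (z : A k),
      of A (i + (j + k + 1) + 1) (b i (j + k + 1) x (b j k y z))
        = of A (i + j + 1 + k + 1) (b (i + j + 1) k (b i j x y) z)
          + of A (j + (i + k + 1) + 1) (b j (i + k + 1) y (b i k x z))) :
    LieRing (⨁ d, A d) where
  bracket x y := grBr b x y
  add_lie x y z := by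
    show grBr b (x + y) z = grBr b x z + grBr b y z
    rw [map_add, AddMonoidHom.add_apply]
  lie_add x y z := by
    show grBr b x (y + z) = grBr b x y + grBr b x z
    rw [map_add]
  lie_self x := grBr_self b halt hskew x
  leibniz_lie x y z := grBr_jac b hjac x y z

end Cfsg.Agent.Lib.Lead.HKK
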