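import Cfsg.Agent.Lib.Lead.HKK.Defs

/-!
# Ladder HKK: basic API for graded families
-/

set_option autoImplicit false

namespace Cfsg.Agent.Lib.Lead.HKK

variable {L : Type*} [LieRing L] {n : ℕ}

theorem mem_brk {A B : ZMod n → AddSubgroup L} {a b : ZMod n} {x y : L} (hx : x ∈ A a) (hy : y ∈ B b) :
    ⁅x, y⁆ ∈ brk A B (a + b) :=
  AddSubgroup.subset_closure ⟨a, b, x, y, rfl, hx, hy, rfl⟩

theorem mem_brk' {A B : ZMod n → AddSubgroup L} {a b i : ZMod n} {x y : L} (hx : x ∈ A a) (hy : y ∈ B b)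
    (h : a + b = i) : ⁅x, y⁆ ∈ brk A B i := h ▸ mem_brk hx hy

/-- to bound `brk A B` it suffices to bound the brackets of homogeneous elements -/
theorem brk_le {A B C : ZMod n → AddSubgroup L}
    (h : ∀ (a b : ZMod n) (x y : L), x ∈ A a → y ∈ B b → ⁅x, y⁆ ∈ C (a + b)) (i : ZMod n) :
    brk A B i ≤ C i := by
  refine (AddSubgroup.closure_le _).mpr ?_
  rintro z ⟨a, b, x, y, rfl, hx, hy, rfl⟩
  exact h a b x y hx hy

theorem brk_mono {A A' B B' : ZMod n → AddSubgroup L} (hA : ∀ i, A i ≤ A' i) (hB : ∀ i, B i ≤ B' i)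
    (i : ZMod n) : brk A B i ≤ brk A' B' i :=
  brk_le (fun _ _ _ _ hx hy => mem_brk (hA _ hx) (hB _ hy)) i

theorem IsGr.brk_le {K : ZMod n → AddSubgroup L} (hK : IsGr K) (i : ZMod n) : brk K K i ≤ K i :=
  HKK.brk_le (fun a b x y hx hy => hK.lie a b x y hx hy) i

theorem IsGr.der_le {K : ZMod n → AddSubgroup L} (hK : IsGr K) (i : ZMod n) : der K i ≤ K i :=
  hK.brk_le i

/-- a subfamily closed under brackets is again graded with zero `0`-component -/
theorem IsGr.of_le {K M : ZMod n → AddSubgroup L} (hK : IsGr K) (hM : ∀ i, M i ≤ K i)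
    (hl : ∀ (a b : ZMod n) (x y : L), x ∈ M a → y ∈ M b → ⁅x, y⁆ ∈ M (a + b)) : IsGr M :=
  ⟨le_bot_iff.mp (hK.zero ▸ hM 0), hl⟩

theorem IsGr.der {K : ZMod n → AddSubgroup L} (hK : IsGr K) : IsGr (der K) :=
  hK.of_le hK.der_le (fun _ _ _ _ hx hy => mem_brk (hK.der_le _ hx) (hK.der_le _ hy))

theorem IsGr.iterate_der {K : ZMod n → AddSubgroup L} (hK : IsGr K) (s : ℕ) : IsGr (HKK.der^[s] K) := by
  induction s generalizing K with
  | zero => exact hK
  | succ s ih => rw [Function.iterate_succ_apply]; exact ih hK.der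

theorem der_mono {K M : ZMod n → AddSubgroup L} (h : ∀ i, K i ≤ M i) (i : ZMod n) : der K i ≤ der M i :=
  brk_mono h h i

theorem IsGr.gam_le {K : ZMod n → AddSubgroup L} (hK : IsGr K) (k : ℕ) (i : ZMod n) : gam K k i ≤ K i := by
  induction k generalizing i with
  | zero => exact le_rfl
  | succ k ih => exact HKK.brk_le (fun a b x y hx hy => hK.lie a b x y (ih a hx) hy) i

theorem IsGr.eq_zero {K : ZMod n → AddSubgroup L} (hK : IsGr K) {x : L} (hx : x ∈ K 0) : x = 0 := by
  rw [hK.zero] at hx; exact (AddSubgroup.mem_bot).mp hx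

@[simp] theorem lnb_nil (u : L) : lnb u [] = u := rfl
@[simp] theorem lnb_cons (u y : L) (l : List L) : lnb u (y :: l) = lnb ⁅u, y⁆ l := rfl
theorem lnb_append (u : L) (l₁ l₂ : List L) : lnb u (l₁ ++ l₂) = lnb (lnb u l₁) l₂ :=
  List.foldl_append ..
theorem lnb_concat (u y : L) (l : List L) : lnb u (l ++ [y]) = ⁅lnb u l, y⁆ := by
  rw [lnb_append]; rfl

@[simp] theorem lnb_zero (l : List L) : lnb (0 : L) l = 0 := by
  induction l with
  | nil => rfl
  | cons y l ih => rw [lnb_cons, zero_lie, ih]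

theorem lnb_add (u v : L) (l : List L) : lnb (u + v) l = lnb u l + lnb v l := by
  induction l generalizing u v with
  | nil => rfl
  | cons y l ih => rw [lnb_cons, lnb_cons, lnb_cons, add_lie, ih]

theorem lnb_neg (u : L) (l : List L) : lnb (-u) l = -lnb u l := by
  induction l generalizing u with
  | nil => rfl
  | cons y l ih => rw [lnb_cons, lnb_cons, neg_lie, ih]

theorem lnb_sub (u v : L) (l : List L) : lnb (u - v) l = lnb u l - lnb v l := by
  rw [sub_eq_add_neg, lnb_add, lnb_neg, sub_eq_add_neg]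

/-- homogeneous left normed brackets: degrees add up -/
theorem IsGr.lnb_mem {K : ZMod n → AddSubgroup L} (hK : IsGr K) {b : ZMod n} {x : L} (hx : x ∈ K b)
    (l : List (ZMod n × L)) (hl : ∀ q ∈ l, q.2 ∈ K q.1) :
    lnb x (l.map Prod.snd) ∈ K (b + (l.map Prod.fst).sum) := by
  induction l generalizing b x with
  | nil => simpa using hx
  | cons q l ih =>
    have h1 := ih (hK.lie b q.1 x q.2 hx (hl q (by simp))) (fun r hr => hl r (by simp [hr]))
    simpa [add_assoc] using h1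

theorem xi_zero (p : ℕ) : xi p 0 = 0 := rfl

theorem xi_succ (p s : ℕ) : xi p (s + 1) = 1 + (p - 1) * xi p s := by
  unfold xi
  rw [Finset.sum_range_succ', Finset.mul_sum, pow_zero, add_comm]
  congr 1
  exact Finset.sum_congr rfl (fun i _ => by rw [pow_succ, mul_comm])

end Cfsg.Agent.Lib.Lead.HKK
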