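import Cfsg.Agent.Lib.Lead.HKK.Basic

/-!
# Ladder HKK: the convolution Lie ring `L[x]/(x^p - 1)` as functions `ZMod p → L`
-/

set_option autoImplicit false

namespace Cfsg.Agent.Lib.Lead.HKK

/-- `Conv p L = L ⊗ ℤ[x]/(x^p-1)`, realised as functions `ZMod p → L` with the convolution bracket. -/
def Conv (p : ℕ) (L : Type*) : Type _ := ZMod p → L

variable {p : ℕ} [NeZero p] {L : Type*} [LieRing L]

noncomputable instance Conv.instAddCommGroup : AddCommGroup (Conv p L) :=
  inferInstanceAs (AddCommGroup (ZMod p → L))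

noncomputable instance Conv.instBracket : Bracket (Conv p L) (Conv p L) :=
  ⟨fun f g k => ∑ i : ZMod p, ⁅f i, g (k - i)⁆⟩

theorem Conv.lie_apply (f g : Conv p L) (k : ZMod p) : (⁅f, g⁆ : Conv p L) k = ∑ i : ZMod p, ⁅f i, g (k - i)⁆ := rfl

@[simp] theorem Conv.add_apply (f g : Conv p L) (k : ZMod p) : (f + g) k = f k + g k := rfl
@[simp] theorem Conv.zero_apply (k : ZMod p) : (0 : Conv p L) k = 0 := rfl
@[simp] theorem Conv.neg_apply (f : Conv p L) (k : ZMod p) : (-f) k = -f k := rfl
@[simp] theorem Conv.sub_apply (f g : Conv p L) (k : ZMod p) : (f - g) k = f k - g k := rfl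
@[simp] theorem Conv.nsmul_apply (m : ℕ) (f : Conv p L) (k : ZMod p) : (m • f) k = m • f k := rfl
@[ext] theorem Conv.ext {f g : Conv p L} (h : ∀ k, f k = g k) : f = g := funext h

noncomputable instance Conv.instLieRing : LieRing (Conv p L) where
  add_lie f g h := by
    ext k
    simp only [Conv.lie_apply, Conv.add_apply, add_lie, Finset.sum_add_distrib]
  lie_add f g h := by
    ext k
    simp only [Conv.lie_apply, Conv.add_apply, lie_add, Finset.sum_add_distrib]
  lie_self f := by
    ext k
    rw [Conv.lie_apply, Conv.zero_apply]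
    refine Finset.sum_involution (fun i _ => k - i) ?_ ?_ ?_ ?_
    · intro i _
      rw [sub_sub_cancel, ← lie_skew, neg_add_cancel]
    · intro i _ hne heq
      apply hne
      rw [heq, lie_self]
    · intro i _; exact Finset.mem_univ _
    · intro i _; exact sub_sub_cancel k i
  leibniz_lie f g h := by
    ext k
    simp only [Conv.lie_apply, Conv.add_apply, lie_sum, sum_lie]
    have e1 : ∑ m : ZMod p, ∑ i : ZMod p, ⁅⁅f i, g (m - i)⁆, h (k - m)⁆
        = ∑ i : ZMod p, ∑ j : ZMod p, ⁅⁅f i, g j⁆, h (k - i - j)⁆ := by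
      rw [Finset.sum_comm]
      refine Finset.sum_congr rfl (fun i _ => ?_)
      refine Fintype.sum_equiv (Equiv.subRight i) _ _ (fun m => ?_)
      simp only [Equiv.subRight_apply]
      congr 2
      abel
    have e2 : ∑ j : ZMod p, ∑ i : ZMod p, ⁅g j, ⁅f i, h (k - j - i)⁆⁆
        = ∑ i : ZMod p, ∑ j : ZMod p, ⁅g j, ⁅f i, h (k - i - j)⁆⁆ := by
      rw [Finset.sum_comm]
      refine Finset.sum_congr rfl (fun i _ => Finset.sum_congr rfl (fun j _ => ?_))
      congr 3
      abel
    rw [e1, e2, ← Finset.sum_add_distrib]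
    refine Finset.sum_congr rfl (fun i _ => ?_)
    rw [← Finset.sum_add_distrib]
    exact Finset.sum_congr rfl (fun j _ => leibniz_lie _ _ _)

end Cfsg.Agent.Lib.Lead.HKK
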