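import Cfsg.Agent.Lib.Lead.HKK.Basic
import Cfsg.Agent.Lib.Helper41.HKKExt
import Cfsg.Agent.Lib.Helper9.HKKAssoc

set_option autoImplicit false
universe u


namespace Cfsg.Agent.Lib.Lead.HKK
open scoped commutatorElement

theorem aut_mem_Γ {G : Type*} [Group G] (α : MulAut G) (d : ℕ) (g : G) (hg : g ∈ Γ G d) : α g ∈ Γ G d := by
  have hc : (Γ G d).Characteristic := Subgroup.lowerCentralSeries_characteristic _ d
  have := Subgroup.characteristic_iff_map_eq.mp hc α
  rw [← this]
  exact Subgroup.mem_map_of_mem _ hg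

theorem pow_mem_lcs_succ {G : Type u} [Group G] [Finite G] (p : ℕ) [Fact p.Prime] (α : MulAut G)
    (hα : α ^ p = 1)
    (N : ℕ) (hN : ∀ d g, g ∈ Γ G d → g⁻¹ * α g ∈ Γ G (d + 1) → g ^ N ∈ Γ G (d + 1))
    (c : ℕ) (hc : NilBound.{u} p c) :
    ∀ g ∈ Γ G c, g ^ (N ^ (c + 1) * p ^ c) ∈ Γ G (c + 1) := by
  obtain ⟨L, _, φ, cls, hφ, hadd, hker, hbr, hφc, hspan, hfix⟩ := Cfsg.Agent.Lib.Helper9.HKK.exists_assoc G α
  -- `cls d 1 = 0`, inverses, powers
  have hone : ∀ d, cls d 1 = 0 := by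
    intro d
    have := hadd d 1 1 (Subgroup.one_mem _) (Subgroup.one_mem _)
    rw [mul_one] at this
    exact left_eq_add.mp this
  have hinv : ∀ d g, g ∈ Γ G d → cls d g⁻¹ = - cls d g := by
    intro d g hg
    have := hadd d g g⁻¹ hg (Subgroup.inv_mem _ hg)
    rw [mul_inv_cancel, hone] at this
    exact (neg_eq_of_add_eq_zero_right this.symm).symm
  have hpow : ∀ d g, g ∈ Γ G d → ∀ m : ℕ, cls d (g ^ m) = m • cls d g := by
    intro d g hg m
    induction m with
    | zero => rw [pow_zero, zero_smul, hone]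
    | succ m ih => rw [pow_succ, hadd d _ _ (Subgroup.pow_mem _ hg m) hg, ih, succ_nsmul]
  -- `φ ^ p = 1`
  have hit : ∀ (k : ℕ) d g, g ∈ Γ G d → φ^[k] (cls d g) = cls d ((α ^ k) g) := by
    intro k
    induction k with
    | zero => intro d g _; rfl
    | succ k ih =>
      intro d g hg
      rw [Function.iterate_succ_apply', ih d g hg, hφc d _ (aut_mem_Γ (α ^ k) d g hg), pow_succ']
      rfl
  have hp : ∀ x : L, φ^[p] x = x := by
    intro x
    refine AddSubgroup.closure_induction (p := fun z _ => φ^[p] z = z) ?_ ?_ ?_ ?_ (hspan x)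
    · rintro z ⟨d, g, hg, rfl⟩
      rw [hit p d g hg, hα]; rfl
    · exact iterate_map_zero φ p
    · intro a b _ _ ha hb
      rw [iterate_map_add φ p, ha, hb]
    · intro a _ ha
      rw [iterate_map_neg φ p, ha]
  have hkill := fun (u : L) (l : List L) (hl : l.length = c) =>
    Cfsg.Agent.Lib.Helper41.HKK.ext p φ hφ hp N (hfix N hN) c hc u l hl
  -- `cls d g` is a sum of left normed brackets of length `d`
  have hsp : ∀ d g, g ∈ Γ G d → cls d g ∈ AddSubgroup.closure {y | ∃ (u : L) (l : List L), l.length = d ∧ y = lnb u l} := by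
    intro d
    induction d with
    | zero =>
      intro g _
      exact AddSubgroup.subset_closure ⟨cls 0 g, [], rfl, rfl⟩
    | succ d ih =>
      intro g hg
      have hg' : g ∈ Subgroup.closure {x | ∃ a ∈ Γ G d, ∃ b ∈ (⊤ : Subgroup G), ⁅a, b⁆ = x} := hg
      have hsub : Subgroup.closure {x | ∃ a ∈ Γ G d, ∃ b ∈ (⊤ : Subgroup G), ⁅a, b⁆ = x} ≤ Γ G (d + 1) :=
        le_of_eq rfl
      refine Subgroup.closure_induction
        (p := fun z hz => cls (d + 1) z ∈ AddSubgroup.closure {y | ∃ (u : L) (l : List L), l.length = d + 1 ∧ y = lnb u l})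
        ?_ ?_ ?_ ?_ hg'
      · rintro z ⟨a, ha, b, _, rfl⟩
        have h1 : cls (d + 1) ⁅a, b⁆ = ⁅cls d a, cls 0 b⁆ := (hbr d 0 a b ha (Subgroup.mem_top b)).symm
        rw [h1]
        refine AddSubgroup.closure_induction
          (p := fun w _ => ⁅w, cls 0 b⁆ ∈ AddSubgroup.closure {y | ∃ (u : L) (l : List L), l.length = d + 1 ∧ y = lnb u l})
          ?_ ?_ ?_ ?_ (ih a ha)
        · rintro w ⟨u, l, hl, rfl⟩
          refine AddSubgroup.subset_closure ⟨u, l ++ [cls 0 b], by simp [hl], ?_⟩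
          rw [lnb_concat]
        · rw [zero_lie]; exact AddSubgroup.zero_mem _
        · intro x y _ _ hx hy
          rw [add_lie]; exact AddSubgroup.add_mem _ hx hy
        · intro x _ hx
          rw [neg_lie]; exact AddSubgroup.neg_mem _ hx
      · rw [hone]; exact AddSubgroup.zero_mem _
      · intro x y hx hy h1 h2
        rw [hadd (d + 1) x y (hsub hx) (hsub hy)]
        exact AddSubgroup.add_mem _ h1 h2
      · intro x hx h1
        rw [hinv (d + 1) x (hsub hx)]
        exact AddSubgroup.neg_mem _ h1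
  intro g hg
  rw [← hker c _ (Subgroup.pow_mem _ hg _), hpow c g hg]
  refine AddSubgroup.closure_induction (p := fun w _ => (N ^ (c + 1) * p ^ c) • w = 0) ?_ ?_ ?_ ?_ (hsp c g hg)
  · rintro w ⟨u, l, hl, rfl⟩
    exact hkill u l hl
  · exact smul_zero _
  · intro x y _ _ hx hy
    rw [smul_add, hx, hy, add_zero]
  · intro x _ hx
    rw [smul_neg, hx, neg_zero]

end Cfsg.Agent.Lib.Lead.HKK
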