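import Cfsg.Agent.Lib.Lead.HKK.Basic

/-!
# Ladder HKK, rung K: Kreknin's theorem for graded families
-/

set_option autoImplicit false

namespace Cfsg.Agent.Lib.Lead.HKK

variable {L : Type*} [LieRing L] {n : ℕ}

/-- the graded Lie subring generated by the components `K j` with `k ≤ j.val` -/
inductive Gen (K : ZMod n → AddSubgroup L) (k : ℕ) : ZMod n → L → Prop
  | base {j : ZMod n} {x : L} : k ≤ j.val → x ∈ K j → Gen K k j x
  | zero (i : ZMod n) : Gen K k i 0
  | add {i : ZMod n} {x y : L} : Gen K k i x → Gen K k i y → Gen K k i (x + y)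
  | neg {i : ZMod n} {x : L} : Gen K k i x → Gen K k i (-x)
  | lie {i j : ZMod n} {x y : L} : Gen K k i x → Gen K k j y → Gen K k (i + j) ⁅x, y⁆

theorem Gen.mem {K : ZMod n → AddSubgroup L} (hK : IsGr K) {k : ℕ} {i : ZMod n} {x : L}
    (h : Gen K k i x) : x ∈ K i := by
  induction h with
  | base _ hx => exact hx
  | zero i => exact (K i).zero_mem
  | add _ _ h1 h2 => exact (K _).add_mem h1 h2
  | neg _ h1 => exact (K _).neg_mem h1
  | lie _ _ h1 h2 => exact hK.lie _ _ _ _ h1 h2

theorem Gen.sub {K : ZMod n → AddSubgroup L} {k : ℕ} {i : ZMod n} {x y : L}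
    (h1 : Gen K k i x) (h2 : Gen K k i y) : Gen K k i (x - y) := by
  rw [sub_eq_add_neg]; exact h1.add h2.neg

theorem Gen.mono {K K₁ : ZMod n → AddSubgroup L} {k k' : ℕ}
    (h : ∀ (j : ZMod n) (x : L), k ≤ j.val → x ∈ K₁ j → Gen K k' j x) {i : ZMod n} {x : L}
    (hx : Gen K₁ k i x) : Gen K k' i x := by
  induction hx with
  | base hj hx => exact h _ _ hj hx
  | zero i => exact Gen.zero i
  | add _ _ h1 h2 => exact h1.add h2
  | neg _ h1 => exact h1.neg
  | lie _ _ h1 h2 => exact h1.lie h2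

theorem val_gt_of_add_eq [NeZero n] {k : ℕ} {a j : ZMod n} (ha : k < a.val) (h : a + j = (k : ZMod n)) :
    k + 1 ≤ j.val := by
  have han : a.val < n := ZMod.val_lt a
  have hjn : j.val < n := ZMod.val_lt j
  have h1 : (a + j).val = (a.val + j.val) % n := ZMod.val_add a j
  have h2 : ((k : ℕ) : ZMod n).val = k := ZMod.val_natCast_of_lt (by omega)
  rw [h, h2] at h1
  by_cases hlt : a.val + j.val < n
  · rw [Nat.mod_eq_of_lt hlt] at h1; omega
  · rw [Nat.mod_eq_sub_mod (by omega), Nat.mod_eq_of_lt (by omega)] at h1; omega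

/-- Lemma K1 -/
theorem Gen.lie_level [NeZero n] {K : ZMod n → AddSubgroup L} (hK : IsGr K) {k : ℕ} {i : ZMod n} {u : L}
    (hu : Gen K k i u) : ∀ (j : ZMod n) (v : L), Gen K k j v → i + j = (k : ZMod n) →
      Gen K (k + 1) (k : ZMod n) ⁅u, v⁆ := by
  induction hu with
  | @base a x hka hx =>
    intro j v hv hij
    rcases Nat.lt_or_ge k a.val with hlt | hge
    · have hj := val_gt_of_add_eq hlt hij
      have := Gen.lie (Gen.base (K := K) (k := k + 1) hlt hx) (Gen.base (K := K) (k := k + 1) hj (hv.mem hK))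
      rwa [hij] at this
    · have hak : a.val = k := le_antisymm hge hka
      have ha : a = (k : ZMod n) := by rw [← hak, ZMod.natCast_zmod_val]
      have hj0 : j = 0 := by
        rw [ha] at hij
        exact add_eq_left.mp hij
      have hv0 : v = 0 := hK.eq_zero (hj0 ▸ hv.mem hK)
      rw [hv0, lie_zero]
      exact Gen.zero _
  | zero i =>
    intro j v _ _
    rw [zero_lie]; exact Gen.zero _
  | add _ _ h1 h2 =>
    intro j v hv hij
    rw [add_lie]; exact (h1 j v hv hij).add (h2 j v hv hij)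
  | neg _ h1 =>
    intro j v hv hij
    rw [neg_lie]; exact (h1 j v hv hij).neg
  | @lie i1 i2 u1 u2 g1 g2 h1 h2 =>
    intro j v hv hij
    rw [lie_lie]
    refine Gen.sub (h1 (i2 + j) ⁅u2, v⁆ (g2.lie hv) (by rw [← hij, add_assoc])) ?_
    exact h2 (i1 + j) ⁅u1, v⁆ (g1.lie hv) (by rw [← hij]; abel)

theorem IsGr.iterate_der_le {K : ZMod n → AddSubgroup L} (hK : IsGr K) (s : ℕ) (i : ZMod n) :
    (HKK.der^[s] K) i ≤ K i := by
  induction s generalizing i with
  | zero => exact le_rfl
  | succ s ih =>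
    rw [Function.iterate_succ_apply']
    exact ((hK.iterate_der s).der_le i).trans (ih i)

/-- statement `P(k)` -/
theorem gen_of_mem_iterate_der [NeZero n] (k : ℕ) : ∀ (K : ZMod n → AddSubgroup L), IsGr K →
    ∀ (i : ZMod n) (x : L), x ∈ (der^[2 ^ k - 1] K) i → Gen K (k + 1) i x := by
  induction k with
  | zero =>
    intro K hK i x hx
    have hx' : x ∈ K i := hx
    by_cases hi : i = 0
    · subst hi
      rw [hK.eq_zero hx']; exact Gen.zero _
    · refine Gen.base ?_ hx'
      have : i.val ≠ 0 := fun h => hi ((ZMod.val_eq_zero i).mp h)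
      omega
  | succ k ih =>
    intro K hK i x hx
    have hpos : 0 < 2 ^ k := by positivity
    have e1 : 2 ^ (k + 1) - 1 = (2 ^ k - 1) + 2 ^ k := by rw [pow_succ]; omega
    rw [e1, Function.iterate_add_apply] at hx
    have hK1 : IsGr (der^[2 ^ k] K) := hK.iterate_der _
    refine Gen.mono ?_ (ih _ hK1 i x hx)
    intro j y hj hy
    rcases Nat.lt_or_ge (k + 1) j.val with hlt | hge
    · exact Gen.base hlt (hK.iterate_der_le _ _ hy)
    · have hjk : j.val = k + 1 := le_antisymm hge hj
      have hj' : j = ((k + 1 : ℕ) : ZMod n) := by rw [← hjk, ZMod.natCast_zmod_val]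
      have e2 : 2 ^ k = (2 ^ k - 1) + 1 := by omega
      rw [e2, Function.iterate_succ_apply'] at hy
      refine AddSubgroup.closure_induction (p := fun z _ => Gen K (k + 1 + 1) j z) ?_ ?_ ?_ ?_ hy
      · rintro z ⟨a, b, x', y', hab, hx', hy', rfl⟩
        have := Gen.lie_level hK (ih K hK a x' hx') b y' (ih K hK b y' hy') (by rw [hab, hj'])
        rwa [← hj'] at this
      · exact Gen.zero _
      · intro _ _ _ _ h1 h2; exact h1.add h2
      · intro _ _ h1; exact h1.neg

theorem Gen.eq_zero_top [NeZero n] {K : ZMod n → AddSubgroup L} {i : ZMod n} {x : L} (h : Gen K n i x) :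
    x = 0 := by
  induction h with
  | @base j _ hj _ => exact absurd (ZMod.val_lt j) (by omega)
  | zero i => rfl
  | add _ _ h1 h2 => rw [h1, h2, add_zero]
  | neg _ h1 => rw [h1, neg_zero]
  | lie _ _ h1 _ => rw [h1, zero_lie]

/-- **Kreknin's theorem** (for graded families, no independence needed). -/
theorem kreknin [NeZero n] (K : ZMod n → AddSubgroup L) (hK : IsGr K) :
    ∀ i, (der^[2 ^ (n - 1) - 1] K) i = ⊥ := by
  intro i
  rw [eq_bot_iff]
  intro x hx
  have h := gen_of_mem_iterate_der (n - 1) K hK i x hx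
  have hn : n - 1 + 1 = n := Nat.sub_add_cancel (Nat.pos_of_ne_zero (NeZero.ne n))
  rw [hn] at h
  exact (AddSubgroup.mem_bot).mpr h.eq_zero_top

end Cfsg.Agent.Lib.Lead.HKK
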